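import Cfsg.Agent.Lib.SmallIso.Order168Sub
import Cfsg.Agent.S1005

/-! Normalizers of four-groups and maximal subgroups of a simple group of order 168. -/

set_option autoImplicit false
set_option linter.unusedSectionVars false
set_option linter.style.haveILetI false

namespace CfsgLib.Order168Sub

universe u

variable {G : Type u} [Group G] [Finite G] [IsSimpleGroup G] (h : Nat.card G = 168)
include h

theorem index_ge {M : Subgroup G} (hM : M ≠ ⊤) : Nat.card M ≤ 24 := by
  have h1 := CfsgLib.SmallSimple.card_dvd_factorial M hM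
  have h2 := Subgroup.card_mul_index M
  rw [h] at h1 h2
  by_contra hlt
  have h3 : M.index < 7 := by
    by_contra h7
    nlinarith
  generalize M.index = i at h1 h3 h2
  interval_cases i <;> revert h1 <;> decide

theorem normalizer_ne {V : Subgroup G} (hV : V ≠ ⊥) (hV' : V ≠ ⊤) : Subgroup.normalizer (V : Set G) ≠ ⊤ := fun e => by
  rcases (Subgroup.normalizer_eq_top_iff.1 e).eq_bot_or_eq_top with e' | e'
  · exact hV e'
  · exact hV' e'

theorem normalizer_le {V : Subgroup G} (hV : 1 < Nat.card V) (hV' : Nat.card V < 168) :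
    Nat.card (Subgroup.normalizer (V : Set G)) ≤ 24 := by
  refine index_ge h (normalizer_ne h (fun e => ?_) (fun e => ?_))
  · rw [e, Subgroup.card_bot] at hV; omega
  · rw [e, Subgroup.card_top, h] at hV'; omega

theorem orders : ∀ g : G, orderOf g = 1 ∨ orderOf g = 2 ∨ orderOf g = 3 ∨ orderOf g = 4 ∨ orderOf g = 7 :=
  (Cfsg.Agent.S1005.result h).1

theorem iso_S4 {M : Subgroup G} (hM : Nat.card M = 24) : Nonempty (M ≃* Equiv.Perm (Fin 4)) := by
  refine Cfsg.Agent.S1012.result hM fun g e => ?_
  rw [← Subgroup.orderOf_coe] at e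
  rcases orders h (g : G) with f | f | f | f | f <;> omega

/-- Four-groups have normalizers of order twenty-four. -/
theorem klein_normalizer [Fact (Nat.Prime 2)] {V : Subgroup G} (hV : IsKleinFour V) :
    Nat.card (Subgroup.normalizer (V : Set G)) = 24 := by
  haveI := hV
  have hV4 : Nat.card V = 4 := IsKleinFour.card_four
  obtain ⟨T, hVT⟩ := (IsPGroup.of_card (n := 2) (by rw [hV4]; rfl) : IsPGroup 2 V).exists_le_sylow
  obtain ⟨U, W, hU, hW, -, hUT, hWT, hall, hnU, hnW⟩ := klein_two h T
  have hTN : (T : Subgroup G) ≤ Subgroup.normalizer (V : Set G) := by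
    rcases hall V hV hVT with rfl | rfl <;> assumption
  obtain ⟨a, x, hat, hxt, ha, hxx, hxn, hxa, hmem, hzc⟩ := sylow_frame h T
  -- an involution of the four-group which is not central in the Sylow subgroup
  have hzu : ∃ v ∈ V, v ≠ 1 ∧ ∃ t ∈ (T : Subgroup G), t * v ≠ v * t := by
    by_contra hall'
    push Not at hall'
    have hT8 := (CfsgLib.Order168.card_sylow2 h).1 T
    obtain ⟨v, w, hv, hw, hv1, hw1, hvw⟩ : ∃ v w : G, v ∈ V ∧ w ∈ V ∧ v ≠ 1 ∧ w ≠ 1 ∧ v ≠ w := by
      have : 1 < (((V : Set G)) \ {1}).ncard := by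
        rw [Set.ncard_diff_singleton_of_mem (one_mem V), ← Nat.card_coe_set_eq]
        show 1 < Nat.card V - 1
        omega
      obtain ⟨v, hv, w, hw, hvw⟩ := (Set.one_lt_ncard (Set.toFinite _)).1 this
      exact ⟨v, w, hv.1, hw.1, fun e => hv.2 e, fun e => hw.2 e, hvw⟩
    have key : ∀ u ∈ V, u ≠ 1 → u = a ^ 2 := by
      intro u hu hu1
      have huu := klein_sq hV hu
      rcases hmem u (hVT hu) with ⟨i, rfl⟩ | ⟨i, rfl⟩
      · rw [← zpow_add, ← orderOf_dvd_iff_zpow_eq_one, ha] at huu
        have hne : ¬ (4 : ℤ) ∣ i := fun hd => hu1 (orderOf_dvd_iff_zpow_eq_one.1 (by rw [ha]; exact_mod_cast hd))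
        show a ^ i = a ^ 2
        rw [← zpow_natCast a 2, zpow_eq_zpow_iff_modEq, ha, Int.modEq_iff_dvd]
        push_cast at huu ⊢
        omega
      · exfalso
        have h1 := hall' _ hu hu1 a hat
        have hxa' : x * a = a⁻¹ * x := mul_inv_eq_iff_eq_mul.1 hxa
        have h2 : x * a = a * x := by
          apply mul_right_cancel (b := a ^ i)
          rw [mul_assoc, mul_assoc, ((Commute.refl a).zpow_right i).eq, ← mul_assoc, ← h1]
        rw [hxa'] at h2
        have h3 := mul_right_cancel h2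
        rw [inv_eq_iff_mul_eq_one, ← pow_two, ← orderOf_dvd_iff_pow_eq_one, ha] at h3
        norm_num at h3
    exact hvw ((key v hv hv1).trans (key w hw hw1).symm)
  obtain ⟨v, hv, hv1, t, ht, htv⟩ := hzu
  have hvo : orderOf v = 2 := orderOf_eq_prime (by rw [pow_two]; exact klein_sq hV hv) hv1
  have hz1 : a ^ 2 ≠ 1 := fun e => by
    have := orderOf_dvd_iff_pow_eq_one.2 e
    rw [ha] at this; norm_num at this
  have hz : orderOf (a ^ 2) = 2 := by rw [orderOf_pow, ha]; norm_num
  have hCz := CfsgLib.Order168.centralizer_central_involution h T (pow_mem hat 2) hz1 hzc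
  obtain ⟨g, hg⟩ := isConj_iff.1 (CfsgLib.Order168.isConj_involutions h (a ^ 2) v hz hvo)
  -- the centralizer of that involution also normalizes
  have hC8 : Nat.card (Subgroup.centralizer ({v} : Set G)) = 8 := by
    rw [← hg, show Subgroup.centralizer ({g * a ^ 2 * g⁻¹} : Set G) =
        (Subgroup.centralizer ({a ^ 2} : Set G)).map (MulAut.conj g).toMonoidHom by
      ext u
      simp only [Subgroup.mem_map_equiv, Subgroup.mem_centralizer_singleton_iff, MulAut.conj_symm_apply]
      constructor
      · intro e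
        apply mul_left_cancel (a := g)
        apply mul_right_cancel (b := g⁻¹)
        simpa [mul_assoc] using e
      · intro e
        have := congrArg (fun s => g * s * g⁻¹) e
        simpa [mul_assoc] using this,
      Subgroup.card_map_of_injective (MulEquiv.injective (MulAut.conj g)), hCz, (CfsgLib.Order168.card_sylow2 h).1 T]
  have hVC : V ≤ Subgroup.centralizer ({v} : Set G) := fun u hu => by
    rw [Subgroup.mem_centralizer_singleton_iff]
    have h1 := klein_sq hV hu
    have h2 := klein_sq hV hv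
    have h3 := klein_sq hV (mul_mem hu hv)
    calc u * v = (u * v) * ((v * u) * (v * u)) := by rw [klein_sq hV (mul_mem hv hu), mul_one]
      _ = u * (v * v) * u * (v * u) := by group
      _ = v * u := by rw [h2, mul_one, h1, one_mul]
  have hCN : Subgroup.centralizer ({v} : Set G) ≤ Subgroup.normalizer (V : Set G) := by
    haveI : (V.subgroupOf (Subgroup.centralizer ({v} : Set G))).Normal := by
      refine Subgroup.normal_of_index_eq_two ?_
      have := Subgroup.card_mul_index (V.subgroupOf (Subgroup.centralizer ({v} : Set G)))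
      rw [Nat.card_congr (Subgroup.subgroupOfEquivOfLe hVC).toEquiv, hV4, hC8] at this
      omega
    exact (Subgroup.normal_subgroupOf_iff_le_normalizer hVC).1 inferInstance
  have hlt : (T : Subgroup G) < Subgroup.normalizer (V : Set G) := by
    refine lt_of_le_of_ne hTN fun e => htv ?_
    have hCe : Subgroup.centralizer ({v} : Set G) = (T : Subgroup G) :=
      Subgroup.eq_of_le_of_card_ge (e ▸ hCN) (by rw [hC8, (CfsgLib.Order168.card_sylow2 h).1 T])
    exact Subgroup.mem_centralizer_singleton_iff.1 (hCe.symm ▸ ht)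
  have hle := normalizer_le h (V := V) (by omega) (by omega)
  have h8 : 8 ∣ Nat.card (Subgroup.normalizer (V : Set G)) :=
    (CfsgLib.Order168.card_sylow2 h).1 T ▸ Subgroup.card_dvd_of_le hTN
  have hne : Nat.card (Subgroup.normalizer (V : Set G)) ≠ 8 := fun e =>
    hlt.ne (Subgroup.eq_of_le_of_card_ge hTN (by rw [e, (CfsgLib.Order168.card_sylow2 h).1 T]))
  have hdvd : Nat.card (Subgroup.normalizer (V : Set G)) ∣ 168 := h ▸ Subgroup.card_subgroup_dvd_card _
  generalize Nat.card (Subgroup.normalizer (V : Set G)) = n at hle h8 hne hdvd ⊢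
  have := Nat.pos_of_dvd_of_pos hdvd (by norm_num)
  interval_cases n <;> omega

/-- A four-group is the only normal four-group of its normalizer. -/
theorem klein_unique [Fact (Nat.Prime 2)] {U V : Subgroup G} (hU : IsKleinFour U) (hV : IsKleinFour V)
    (hn : Subgroup.normalizer (U : Set G) = Subgroup.normalizer (V : Set G)) : U = V := by
  haveI := hU; haveI := hV
  set N := Subgroup.normalizer (U : Set G) with hN
  have hU4 : Nat.card U = 4 := IsKleinFour.card_four
  have hV4 : Nat.card V = 4 := IsKleinFour.card_four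
  have hUp : IsPGroup 2 U := IsPGroup.of_card (n := 2) (by rw [hU4]; rfl)
  have hVp : IsPGroup 2 V := IsPGroup.of_card (n := 2) (by rw [hV4]; rfl)
  have hP : IsPGroup 2 ↥(U ⊔ V) := hUp.to_sup_of_normal_left' hVp ((Subgroup.le_normalizer (H := V)).trans hn.ge)
  obtain ⟨T, hT⟩ := hP.exists_le_sylow
  by_contra hne
  have hdvd : Nat.card ↥(U ⊔ V) ∣ 8 := (CfsgLib.Order168.card_sylow2 h).1 T ▸ Subgroup.card_dvd_of_le hT
  have h4 : 4 ∣ Nat.card ↥(U ⊔ V) := hU4 ▸ Subgroup.card_dvd_of_le le_sup_left
  have hT' : U ⊔ V = (T : Subgroup G) := by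
    refine Subgroup.eq_of_le_of_card_ge hT ?_
    rw [(CfsgLib.Order168.card_sylow2 h).1 T]
    by_contra hlt
    have h48 : Nat.card ↥(U ⊔ V) = 4 := by
      have := Nat.le_of_dvd (by norm_num) hdvd
      have := Nat.pos_of_dvd_of_pos hdvd (by norm_num)
      omega
    have e1 := Subgroup.eq_of_le_of_card_ge (H := U) (le_sup_left (b := V)) (by rw [h48, hU4])
    have e2 := Subgroup.eq_of_le_of_card_ge (H := V) (le_sup_right (a := U)) (by rw [h48, hV4])
    exact hne (e1.trans e2.symm)
  have hle : N ≤ Subgroup.normalizer ((T : Subgroup G) : Set G) := fun g hg => by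
    rw [Subgroup.mem_normalizer_iff_map_conj_eq, ← hT', Subgroup.map_sup, Subgroup.mem_normalizer_iff_map_conj_eq.1 hg,
      Subgroup.mem_normalizer_iff_map_conj_eq.1 (hn ▸ hg)]
  rw [CfsgLib.Order168.normalizer_sylow2 h T] at hle
  have := Subgroup.card_le_of_le hle
  rw [(CfsgLib.Order168.card_sylow2 h).1 T, hN, klein_normalizer h hU] at this
  omega

theorem conj_normalizer {U : Subgroup G} (g : G) :
    (Subgroup.normalizer (U : Set G)).map (MulAut.conj g).toMonoidHom =
      Subgroup.normalizer ((U.map (MulAut.conj g).toMonoidHom : Subgroup G) : Set G) :=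
  Subgroup.map_equiv_normalizer_eq U (MulAut.conj g)

theorem conj_klein {U : Subgroup G} (hU : IsKleinFour U) (g : G) : IsKleinFour ↥(U.map (MulAut.conj g).toMonoidHom) := by
  haveI := hU
  exact ⟨by rw [Subgroup.card_map_of_injective (MulEquiv.injective (MulAut.conj g)), IsKleinFour.card_four],
    by rw [← Monoid.exponent_eq_of_mulEquiv (U.equivMapOfInjective _ (MulEquiv.injective (MulAut.conj g))),
      IsKleinFour.exponent_two]⟩

theorem not_conj [Fact (Nat.Prime 2)] (T : Sylow 2 G) {U W : Subgroup G} (hU : IsKleinFour U) (hW : IsKleinFour W)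
    (hUT : U ≤ (T : Subgroup G)) (hWT : W ≤ (T : Subgroup G)) (hne : U ≠ W) (g : G) :
    U.map (MulAut.conj g).toMonoidHom ≠ W := by
  intro hg
  obtain ⟨U₀, W₀, hU₀, hW₀, -, hU₀T, hW₀T, hall, hnU, hnW⟩ := klein_two h T
  have hTU : (T : Subgroup G) ≤ Subgroup.normalizer (U : Set G) := by rcases hall U hU hUT with rfl | rfl <;> assumption
  have hTW : (T : Subgroup G) ≤ Subgroup.normalizer (W : Set G) := by rcases hall W hW hWT with rfl | rfl <;> assumption
  have hgT : (T : Subgroup G).map (MulAut.conj g).toMonoidHom ≤ Subgroup.normalizer (W : Set G) := by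
    rw [← hg, ← conj_normalizer h]
    exact Subgroup.map_mono hTU
  set N := Subgroup.normalizer (W : Set G)
  have hgT' : ((g • T : Sylow 2 G) : Subgroup G) ≤ N := by
    rw [Sylow.coe_subgroup_smul]; exact hgT
  obtain ⟨⟨m, hm⟩, hmq⟩ := MulAction.exists_smul_eq N ((g • T).subtype hgT') (T.subtype hTW)
  have hms : (m * g) • T = T := by
    rw [mul_smul]
    apply Sylow.subtype_injective (N := N) (hP := ?_) (hQ := hTW)
    rotate_left
    · rw [Sylow.coe_subgroup_smul]
      rintro _ ⟨u, hu, rfl⟩
      exact mul_mem (mul_mem hm (hgT' hu)) (inv_mem hm)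
    · rw [← hmq, Sylow.smul_subtype]; rfl
  have hmg : m * g ∈ Subgroup.normalizer ((T : Subgroup G) : Set G) := Sylow.smul_eq_iff_mem_normalizer.1 hms
  rw [CfsgLib.Order168.normalizer_sylow2 h T] at hmg
  have h1 : U.map (MulAut.conj (m * g)).toMonoidHom = U := Subgroup.mem_normalizer_iff_map_conj_eq.1 (hTU hmg)
  have h2 : U.map (MulAut.conj (m * g)).toMonoidHom = W := by
    rw [show (MulAut.conj (m * g)).toMonoidHom = (MulAut.conj m).toMonoidHom.comp (MulAut.conj g).toMonoidHom by
      ext u; simp [mul_assoc], ← Subgroup.map_map, hg]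
    exact Subgroup.mem_normalizer_iff_map_conj_eq.1 hm
  exact hne (h1.symm.trans h2)

theorem coatom_of_24 {M : Subgroup G} (hM : Nat.card M = 24) : IsCoatom M := by
  refine ⟨fun e => by rw [e, Subgroup.card_top, h] at hM; omega, fun K hK => ?_⟩
  by_contra hKt
  exact hK.ne (Subgroup.eq_of_le_of_card_ge hK.le (by rw [hM]; exact index_ge h hKt))

theorem pgroup_not_coatom [Fact (Nat.Prime 2)] {M : Subgroup G} (hM : IsCoatom M) (hp : IsPGroup 2 M) : False := by
  obtain ⟨T, hT⟩ := hp.exists_le_sylow
  obtain ⟨U, W, hU, -, -, -, -, -, hnU, -⟩ := klein_two h T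
  have h24 := klein_normalizer h hU
  have hne : Subgroup.normalizer (U : Set G) ≠ ⊤ := (coatom_of_24 h h24).1
  have := hM.le_iff.1 (hT.trans hnU)
  rcases this with e | e
  · exact hne e
  · have h8 := (CfsgLib.Order168.card_sylow2 h).1 T
    have := Subgroup.card_le_of_le hT
    rw [← e, h24] at this
    omega

theorem normal_sylow_eq {M : Subgroup G} (hM : IsCoatom M) {p : ℕ} [Fact p.Prime] (hd : p ∣ Nat.card M)
    (h1 : ∀ S : Sylow p M, (S : Subgroup M).Normal) :
    ∃ P : Subgroup G, IsPGroup p P ∧ P ≠ ⊥ ∧ P ≤ M ∧ M = Subgroup.normalizer (P : Set G) := by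
  obtain ⟨S⟩ := (inferInstance : Nonempty (Sylow p M))
  haveI := h1 S
  have hbot : (S : Subgroup M).map M.subtype ≠ ⊥ := fun e =>
    S.ne_bot_of_dvd_card hd ((Subgroup.map_eq_bot_iff_of_injective _ M.subtype_injective).1 e)
  refine ⟨(S : Subgroup M).map M.subtype, S.2.map _, hbot, Subgroup.map_subtype_le _, ?_⟩
  refine ((hM.le_iff.1 ?_).resolve_left ?_).symm
  · intro m hm
    rw [Subgroup.mem_normalizer_iff_map_conj_eq, Subgroup.map_map,
      show ((MulAut.conj m : G ≃* G) : G →* G).comp M.subtype = M.subtype.comp ((MulAut.conj (⟨m, hm⟩ : M) : M ≃* M) : M →* M) by ext; simp,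
      ← Subgroup.map_map]
    congr 1
    exact Subgroup.mem_normalizer_iff_map_conj_eq.1 (Subgroup.normalizer_eq_top (H := (S : Subgroup M)) ▸ Subgroup.mem_top _)
  · refine normalizer_ne h hbot fun e => hM.1 (top_le_iff.1 ?_)
    rw [← e]; exact Subgroup.map_subtype_le _

/-- The orders of maximal subgroups. -/
theorem coatom_card [Fact (Nat.Prime 2)] {M : Subgroup G} (hM : IsCoatom M) : Nat.card M = 21 ∨ Nat.card M = 24 := by
  haveI : Fact (Nat.Prime 3) := ⟨Nat.prime_three⟩
  haveI : Fact (Nat.Prime 7) := ⟨by norm_num⟩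
  have hle := index_ge h hM.1
  have hdvd : Nat.card M ∣ 168 := h ▸ Subgroup.card_subgroup_dvd_card _
  have h7n : ∀ P : Subgroup G, IsPGroup 7 P → P ≠ ⊥ → Nat.card (Subgroup.normalizer (P : Set G)) = 21 := by
    intro P hP hb
    obtain ⟨S, hS⟩ := hP.exists_le_sylow
    have e : P = (S : Subgroup G) := by
      refine Subgroup.eq_of_le_of_card_ge hS ?_
      obtain ⟨n, hn⟩ := hP.exists_card_eq
      rw [(CfsgLib.Order168.card_sylow7 h).1 S, hn]
      rcases n with _ | n
      · exact absurd (Subgroup.card_eq_one.1 (hn.trans (pow_zero 7))) hb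
      · exact Nat.le_self_pow (by omega) 7
    rw [e]
    have h1 := Subgroup.index_mul_card (Subgroup.normalizer ((S : Subgroup G) : Set G))
    rw [show (Subgroup.normalizer ((S : Subgroup G) : Set G)).index = Nat.card (Sylow 7 G) from
      (Sylow.card_eq_index_normalizer S).symm, (CfsgLib.Order168.card_sylow7 h).2, h] at h1
    omega
  have h3n : ∀ P : Subgroup G, IsPGroup 3 P → P ≠ ⊥ → ∃ S : Sylow 3 G, P = (S : Subgroup G) ∧
      Nat.card (Subgroup.normalizer (P : Set G)) = 6 := by
    intro P hP hb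
    obtain ⟨S, hS⟩ := hP.exists_le_sylow
    have e : P = (S : Subgroup G) := by
      refine Subgroup.eq_of_le_of_card_ge hS ?_
      obtain ⟨n, hn⟩ := hP.exists_card_eq
      rw [(CfsgLib.Order168.card_sylow3 h).1 S, hn]
      rcases n with _ | n
      · exact absurd (Subgroup.card_eq_one.1 (hn.trans (pow_zero 3))) hb
      · exact Nat.le_self_pow (by omega) 3
    refine ⟨S, e, ?_⟩
    rw [e]
    have h1 := Subgroup.index_mul_card (Subgroup.normalizer ((S : Subgroup G) : Set G))
    rw [show (Subgroup.normalizer ((S : Subgroup G) : Set G)).index = Nat.card (Sylow 3 G) from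
      (Sylow.card_eq_index_normalizer S).symm, (CfsgLib.Order168.card_sylow3 h).2, h] at h1
    omega
  -- Sylow numbers inside the subgroup
  have hsyl : ∀ p, Fact p.Prime → ∀ S : Sylow p M, Nat.card (Sylow p M) ∣ Nat.card M ∧
      Nat.card (Sylow p M) % p = 1 % p ∧ (Nat.card (Sylow p M) = 1 → (S : Subgroup M).Normal) := fun p hp S => by
    refine ⟨(Sylow.card_dvd_index S).trans (Subgroup.index_dvd_card _), card_sylow_modEq_one p M, fun e => ?_⟩
    rw [← Subgroup.normalizer_eq_top_iff, ← Subgroup.index_eq_one]; exact (Sylow.card_eq_index_normalizer S).symm.trans e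
  by_cases h7 : 7 ∣ Nat.card M
  · have hN : ∀ S : Sylow 7 M, (S : Subgroup M).Normal := fun S => by
      obtain ⟨h1, h2, h3⟩ := hsyl 7 ⟨by norm_num⟩ S
      refine h3 ?_
      have := Nat.le_of_dvd Nat.card_pos h1
      generalize Nat.card (Sylow 7 M) = n at h1 h2 this
      generalize Nat.card M = m at h1 this hle hdvd h7
      have := Nat.pos_of_dvd_of_pos hdvd (by norm_num)
      interval_cases m <;> interval_cases n <;> omega
    obtain ⟨P, hP, hb, -, hMP⟩ := normal_sylow_eq h hM h7 hN
    exact Or.inl (by rw [hMP, h7n P hP hb])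
  refine Or.inr ?_
  by_cases h3 : 3 ∣ Nat.card M
  swap
  · exfalso
    refine pgroup_not_coatom h hM ?_
    have h8 : Nat.card M ∣ 8 := by
      generalize Nat.card M = m at hle hdvd h7 h3 ⊢
      have := Nat.pos_of_dvd_of_pos hdvd (by norm_num)
      interval_cases m <;> omega
    obtain ⟨k, -, hk⟩ := (Nat.dvd_prime_pow Nat.prime_two).1 (show Nat.card M ∣ 2 ^ 3 from h8)
    exact IsPGroup.of_card hk
  obtain ⟨S⟩ := (inferInstance : Nonempty (Sylow 3 M))
  by_cases hS : Nat.card (Sylow 3 M) = 1
  · exfalso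
    haveI := Finite.card_le_one_iff_subsingleton.1 hS.le
    obtain ⟨P, hP, hb, hPM, hMP⟩ := normal_sylow_eq h hM h3 fun S' => (hsyl 3 ⟨Nat.prime_three⟩ S').2.2 hS
    obtain ⟨S₀, rfl, h6⟩ := h3n P hP hb
    -- such normalizers lie in normalizers of four-groups
    obtain ⟨T⟩ := (inferInstance : Nonempty (Sylow 2 G))
    obtain ⟨U, -, hU, -, -, -, -, -, -, -⟩ := klein_two h T
    have h24 := klein_normalizer h hU
    set N := Subgroup.normalizer (U : Set G) with hN
    obtain ⟨Q⟩ := (inferInstance : Nonempty (Sylow 3 N))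
    have hQ3 : Nat.card (Q : Subgroup N) = 3 := by
      rw [Q.card_eq_multiplicity, h24, show (24 : ℕ) = 3 * 8 by norm_num,
        Nat.factorization_mul (by norm_num) (by norm_num), Nat.prime_three.factorization]
      simp [Nat.factorization_eq_zero_of_not_dvd (show ¬ 3 ∣ 8 by norm_num)]
    have hQp : IsPGroup 3 ↥((Q : Subgroup N).map N.subtype) := Q.2.map _
    have hQb : (Q : Subgroup N).map N.subtype ≠ ⊥ := fun e => by
      rw [Subgroup.map_eq_bot_iff_of_injective _ N.subtype_injective] at e
      rw [e, Subgroup.card_bot] at hQ3; omega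
    obtain ⟨S₁, hS₁, h6'⟩ := h3n _ hQp hQb
    have hQn : (Subgroup.normalizer ((Q : Subgroup N) : Set N)).map N.subtype ≤
        Subgroup.normalizer ((S₁ : Subgroup G) : Set G) := by
      rw [← hS₁]; exact Subgroup.le_normalizer_map _
    have hcQ : Nat.card (Subgroup.normalizer ((Q : Subgroup N) : Set N)) ∣ 6 := by
      have := Subgroup.card_dvd_of_le hQn
      rwa [Subgroup.card_map_of_injective N.subtype_injective, ← hS₁, h6'] at this
    have hn3 := Subgroup.index_mul_card (Subgroup.normalizer ((Q : Subgroup N) : Set N))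
    rw [show (Subgroup.normalizer ((Q : Subgroup N) : Set N)).index = Nat.card (Sylow 3 N) from
      (Sylow.card_eq_index_normalizer Q).symm, h24] at hn3
    have hmod : Nat.card (Sylow 3 N) % 3 = 1 := card_sylow_modEq_one 3 N
    have h6N : Nat.card (Subgroup.normalizer ((Q : Subgroup N) : Set N)) = 6 := by
      generalize Nat.card (Subgroup.normalizer ((Q : Subgroup N) : Set N)) = c at hcQ hn3
      have := Nat.le_of_dvd (by norm_num) hcQ
      have := Nat.pos_of_dvd_of_pos hcQ (by norm_num)
      interval_cases c <;> omega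
    have heq : Subgroup.normalizer ((S₁ : Subgroup G) : Set G) ≤ N := by
      rw [← Subgroup.eq_of_le_of_card_ge hQn (by rw [Subgroup.card_map_of_injective N.subtype_injective, h6N, ← hS₁, h6'])]
      exact Subgroup.map_subtype_le _
    obtain ⟨g, hg⟩ := MulAction.exists_smul_eq G S₁ S₀
    have hlt : M ≤ N.map (MulAut.conj g).toMonoidHom := by
      rw [hMP, ← hg, Sylow.coe_subgroup_smul]
      show Subgroup.normalizer (((S₁ : Subgroup G).map (MulAut.conj g).toMonoidHom : Subgroup G) : Set G) ≤ _
      rw [← conj_normalizer h]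
      exact Subgroup.map_mono heq
    have hc : Nat.card ↥(N.map (MulAut.conj g).toMonoidHom) = 24 := by
      rw [Subgroup.card_map_of_injective (MulEquiv.injective (MulAut.conj g)), h24]
    rcases hM.le_iff.1 hlt with e | e
    · exact (coatom_of_24 h hc).1 e
    · rw [e, hMP, h6] at hc; omega
  · obtain ⟨h1, h2, -⟩ := hsyl 3 ⟨Nat.prime_three⟩ S
    have hm : Nat.card M = 12 ∨ Nat.card M = 24 := by
      have := Nat.le_of_dvd Nat.card_pos h1
      generalize Nat.card (Sylow 3 M) = n at h1 h2 this hS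
      generalize Nat.card M = m at h1 this hle hdvd h3 h7 ⊢
      have := Nat.pos_of_dvd_of_pos hdvd (by norm_num)
      interval_cases m <;> first | omega | (interval_cases n <;> omega)
    rcases hm with hm | hm
    swap
    · exact hm
    exfalso
    -- twelve elements: the Sylow two-subgroup is normal
    have hR : ∀ R : Sylow 3 M, Nat.card (R : Subgroup M) = 3 := fun R => by
      rw [R.card_eq_multiplicity, hm, show (12 : ℕ) = 3 * 4 by norm_num,
        Nat.factorization_mul (by norm_num) (by norm_num), Nat.prime_three.factorization]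
      simp [Nat.factorization_eq_zero_of_not_dvd (show ¬ 3 ∣ 4 by norm_num)]
    have hn4 : Nat.card (Sylow 3 M) = 4 := by
      rw [hm] at h1
      have := Nat.le_of_dvd (by norm_num) h1
      generalize Nat.card (Sylow 3 M) = n at h1 h2 this hS ⊢
      interval_cases n <;> omega
    have h8 := CfsgLib.SmallSimple2.ncard_union (CfsgLib.SmallSimple2.inf_eq_bot_of_card_prime hR) hR
    rw [hn4] at h8
    set A := {g : M | g ≠ 1 ∧ ∃ P : Sylow 3 M, g ∈ (P : Subgroup M)} with hA
    have h4 : (Aᶜ : Set M).ncard = 4 := by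
      rw [Set.ncard_compl, h8, hm]
    have hR2 : ∀ R : Sylow 2 M, ((R : Subgroup M) : Set M) = Aᶜ := fun R => by
      have hc : Nat.card (R : Subgroup M) = 4 := by
        rw [R.card_eq_multiplicity, hm, show (12 : ℕ) = 3 * 2 ^ 2 by norm_num,
          Nat.factorization_mul (by norm_num) (by norm_num), Nat.prime_two.factorization_pow]
        simp [Nat.factorization_eq_zero_of_not_dvd (show ¬ 2 ∣ 3 by norm_num)]
      refine Set.eq_of_subset_of_ncard_le (fun g hg hgA => ?_) (by rw [h4, ← Nat.card_coe_set_eq]; exact hc.ge)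
      obtain ⟨hg1, P, hgP⟩ := hgA
      exact hg1 (orderOf_eq_one_iff.1 (Nat.eq_one_of_dvd_coprimes (by norm_num : Nat.Coprime 4 3)
        (hc ▸ Subgroup.orderOf_dvd_natCard _ hg) (hR P ▸ Subgroup.orderOf_dvd_natCard _ hgP)))
    obtain ⟨R⟩ := (inferInstance : Nonempty (Sylow 2 M))
    haveI : Subsingleton (Sylow 2 M) := ⟨fun R R' => Sylow.ext (SetLike.coe_injective ((hR2 R).trans (hR2 R').symm))⟩
    obtain ⟨V, hV, hVb, hVM, hMV⟩ := normal_sylow_eq h hM (p := 2) (by rw [hm]; norm_num) fun R => inferInstance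
    have hV4 : Nat.card V ∣ 4 := by
      obtain ⟨n, hn⟩ := hV.exists_card_eq
      have h12 : Nat.card V ∣ 12 := hm ▸ Subgroup.card_dvd_of_le hVM
      rw [hn] at h12 ⊢
      exact (Nat.Coprime.pow_left n (by norm_num : Nat.Coprime 2 3)).dvd_of_dvd_mul_right (show 2 ^ n ∣ 4 * 3 from h12)
    -- an element of order three in `M` acts fixed-point-freely
    obtain ⟨⟨y, hyM⟩, hy⟩ := exists_prime_orderOf_dvd_card' (G := M) 3 (by rw [hm]; norm_num)
    rw [Subgroup.orderOf_mk] at hy
    have hyN : y ∈ Subgroup.normalizer (V : Set G) := hMV ▸ hyM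
    have hfix : ∀ v ∈ V, y * v * y⁻¹ = v → v = 1 := fun v hv e => by
      have hm' : v ∈ Subgroup.zpowers y := CfsgLib.Order168.centralizer3 h hy ▸
        Subgroup.mem_centralizer_singleton_iff.2 (mul_inv_eq_iff_eq_mul.1 e).symm
      exact orderOf_eq_one_iff.1 (Nat.eq_one_of_dvd_coprimes (by norm_num : Nat.Coprime 4 3)
        ((Subgroup.orderOf_dvd_natCard _ hv).trans hV4) (hy ▸ orderOf_dvd_of_mem_zpowers hm'))
    have hnocyc : ¬ IsCyclic V := by
      intro hcy
      obtain ⟨⟨g, hg⟩, hgen⟩ := hcy.exists_generator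
      have hgo : Nat.card V = orderOf g := by
        rw [← Subgroup.orderOf_mk g hg, orderOf_eq_card_of_forall_mem_zpowers hgen]
      have hg1 : g ≠ 1 := fun e => hVb (Subgroup.card_eq_one.1 (by rw [hgo, e, orderOf_one]))
      have hyg : y * g * y⁻¹ ∈ V := (Subgroup.mem_normalizer_iff.1 hyN g).1 hg
      obtain ⟨i, hi⟩ := hgen ⟨_, hyg⟩
      have hi' : y * g * y⁻¹ = g ^ i := by simpa using (congrArg Subtype.val hi).symm
      have hgo' : orderOf g = 2 ∨ orderOf g = 4 := by
        rw [hgo] at hV4
        have := Nat.le_of_dvd (by norm_num) hV4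
        have := orderOf_pos g
        have : orderOf g ≠ 1 := fun e => hg1 (orderOf_eq_one_iff.1 e)
        generalize orderOf g = o at *
        interval_cases o <;> omega
      have h2 : (g ^ i) ^ i = y * (y * g * y⁻¹) * y⁻¹ := by rw [hi', ← conj_zpow, hi', ← zpow_mul]
      have h3 : g ^ (i * i * i) = g := by
        rw [zpow_mul, zpow_mul, h2, conj_zpow, conj_zpow, ← hi',
          show y * (y * (y * g * y⁻¹) * y⁻¹) * y⁻¹ = y ^ 3 * g * (y ^ 3)⁻¹ by rw [pow_three]; group, ← hy, pow_orderOf_eq_one]
        group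
      have h4 : (4 : ℤ) ∣ i * i * i - 1 ∨ (2 : ℤ) ∣ i * i * i - 1 ∧ orderOf g = 2 := by
        have hd : (orderOf g : ℤ) ∣ i * i * i - 1 := by
          rw [orderOf_dvd_iff_zpow_eq_one, zpow_sub_one, h3, mul_inv_cancel]
        rcases hgo' with e | e <;> rw [e] at hd
        · exact Or.inr ⟨hd, e⟩
        · exact Or.inl hd
      refine hg1 (hfix g hg ?_)
      rw [hi']
      conv_rhs => rw [← zpow_one g]
      rw [zpow_eq_zpow_iff_modEq, Int.modEq_iff_dvd]
      rcases h4 with h4 | ⟨h4, e⟩
      · have h5 : (4 : ℤ) ∣ 1 - i := by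
          rw [← Int.emod_add_mul_ediv i 4] at h4 ⊢
          have := Int.emod_nonneg i (show (4 : ℤ) ≠ 0 by norm_num)
          have := Int.emod_lt_of_pos i (show (0 : ℤ) < 4 by norm_num)
          obtain ⟨c, hc⟩ := h4
          generalize i / 4 = w at hc ⊢
          generalize i % 4 = r at *
          interval_cases r <;> ring_nf at hc ⊢ <;> omega
        refine dvd_trans ?_ h5
        rcases hgo' with e | e <;> rw [e] <;> norm_num
      · rw [e]
        have h6 : ¬ (2 : ℤ) ∣ i * i * i := by omega
        have : ¬ (2 : ℤ) ∣ i := fun hd => h6 ((hd.mul_right i).mul_right i)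
        push_cast
        omega
    have hV4' : Nat.card V = 4 := by
      have := Nat.le_of_dvd (by norm_num) hV4
      have hp : Nat.card V ≠ 1 := fun e => hVb (Subgroup.card_eq_one.1 e)
      have h2' : Nat.card V ≠ 2 := fun e => hnocyc (isCyclic_of_prime_card e)
      generalize Nat.card V = c at *
      interval_cases c <;> omega
    have hKV : IsKleinFour V := ⟨hV4', by
      haveI : Nontrivial V := Finite.one_lt_card_iff_nontrivial.1 (by omega)
      refine Nat.dvd_antisymm (Monoid.exponent_dvd_of_forall_pow_eq_one fun v => ?_) ?_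
      · have hd : orderOf v ∣ 2 ^ 2 := by rw [show (2 : ℕ) ^ 2 = Nat.card V from hV4'.symm]; exact orderOf_dvd_natCard v
        obtain ⟨k, hk, e⟩ := (Nat.dvd_prime_pow Nat.prime_two).1 hd
        rw [← orderOf_dvd_iff_pow_eq_one, e]
        rcases Nat.lt_or_ge k 2 with hk' | hk'
        · exact (pow_dvd_pow 2 (show k ≤ 1 by omega))
        · exact absurd (isCyclic_of_orderOf_eq_card v (by rw [e, hV4', show k = 2 by omega]; rfl)) hnocyc
      · obtain ⟨v, hv⟩ := exists_prime_orderOf_dvd_card' (G := V) 2 (by rw [hV4']; norm_num)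
        exact hv ▸ Monoid.order_dvd_exponent v⟩
    have := klein_normalizer h hKV
    rw [← hMV, hm] at this
    omega

end CfsgLib.Order168Sub
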