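import Cfsg.Agent.Lib.Order168
import Cfsg.Agent.S1012

/-! Klein four-groups and maximal subgroups of a simple group of order 168. -/

set_option autoImplicit false
set_option linter.unusedSectionVars false
set_option linter.style.haveILetI false

namespace CfsgLib.Order168Sub

universe u

/-- The four-group of two commuting involutions. -/
theorem exists_klein {G : Type u} [Group G] {a b : G} (ha : a * a = 1) (hb : b * b = 1) (hab : a * b = b * a)
    (ha1 : a ≠ 1) (hb1 : b ≠ 1) (hne : a ≠ b) :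
    ∃ U : Subgroup G, IsKleinFour U ∧ a ∈ U ∧ b ∈ U ∧ ∀ v ∈ U, v = 1 ∨ v = a ∨ v = b ∨ v = a * b := by
  classical
  have hb' : ∀ v, b * (b * v) = v := fun v => by rw [← mul_assoc, hb, one_mul]
  have ha' : ∀ v, a * (a * v) = v := fun v => by rw [← mul_assoc, ha, one_mul]
  have hba : ∀ v, b * (a * v) = a * (b * v) := fun v => by rw [← mul_assoc, ← hab, mul_assoc]
  let U : Subgroup G :=
    { carrier := {v | v = 1 ∨ v = a ∨ v = b ∨ v = a * b}
      one_mem' := Or.inl rfl
      mul_mem' := by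
        rintro p q (rfl | rfl | rfl | rfl) (rfl | rfl | rfl | rfl) <;>
          simp [ha, hb, hab.symm, mul_assoc, ha', hb', hba]
      inv_mem' := by
        have hia : a⁻¹ = a := inv_eq_of_mul_eq_one_right ha
        have hib : b⁻¹ = b := inv_eq_of_mul_eq_one_right hb
        rintro p (rfl | rfl | rfl | rfl) <;> simp [hia, hib, hab.symm] }
  have hab1 : a * b ≠ 1 := fun e => hne (by
    have : a * (a * b) = a * 1 := by rw [e]
    rw [ha', mul_one] at this
    exact this.symm)
  have hset : (U : Set G) = ({1, a, b, a * b} : Finset G) := by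
    ext v
    simp [U]
  refine ⟨U, ⟨?_, ?_⟩, Or.inr (Or.inl rfl), Or.inr (Or.inr (Or.inl rfl)), fun v hv => hv⟩
  · rw [show Nat.card U = Nat.card (U : Set G) from rfl, hset, Nat.card_coe_set_eq, Set.ncard_coe_finset,
      Finset.card_eq_of_equiv_fin (n := 4)]
    refine (Finset.equivFinOfCardEq ?_)
    have h1 : a * b ≠ a := fun e => hb1 (mul_eq_left.mp e)
    have h2 : a * b ≠ b := fun e => ha1 (mul_eq_right.mp e)
    rw [Finset.card_insert_of_notMem (by simp [Ne.symm ha1, Ne.symm hb1, Ne.symm hab1]),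
      Finset.card_insert_of_notMem (by simp [hne, Ne.symm h1]),
      Finset.card_insert_of_notMem (by simp [Ne.symm h2]), Finset.card_singleton]
  · refine Nat.dvd_antisymm (Monoid.exponent_dvd_of_forall_pow_eq_one fun v => ?_) ?_
    · rcases v.2 with e | e | e | e <;> refine Subtype.ext ?_ <;> push_cast <;> rw [e, pow_two]
      · exact one_mul 1
      · exact ha
      · exact hb
      · rw [mul_assoc, hba, hb, mul_one, ha]
    · have : orderOf (⟨a, Or.inr (Or.inl rfl)⟩ : U) = 2 :=
        orderOf_eq_prime (Subtype.ext (by push_cast; rw [pow_two, ha])) (fun e => ha1 (congrArg Subtype.val e))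
      exact this ▸ Monoid.order_dvd_exponent _

theorem klein_sq {G : Type u} [Group G] {U : Subgroup G} (hU : IsKleinFour U) {v : G} (hv : v ∈ U) : v * v = 1 := by
  have := congrArg Subtype.val (IsKleinFour.mul_self (⟨v, hv⟩ : U))
  exact this

variable {G : Type u} [Group G] [Finite G] [IsSimpleGroup G] (h : Nat.card G = 168)
include h

/-- Coordinates in a Sylow 2-subgroup. -/
theorem sylow_frame [Fact (Nat.Prime 2)] (T : Sylow 2 G) : ∃ a x : G, a ∈ (T : Subgroup G) ∧ x ∈ (T : Subgroup G) ∧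
    orderOf a = 4 ∧ x * x = 1 ∧ x ∉ Subgroup.zpowers a ∧ x * a * x⁻¹ = a⁻¹ ∧
    (∀ t ∈ (T : Subgroup G), t ∈ Subgroup.zpowers a ∨ ∃ i : ℤ, t = x * a ^ i) ∧
    (∀ t ∈ (T : Subgroup G), t * a ^ 2 = a ^ 2 * t) := by
  obtain ⟨a, x, ha, hx2, hxn, hxa⟩ := CfsgLib.Order168.sylow2_structure h T
  have hidx : (Subgroup.zpowers a).index = 2 := by
    have h1 := Subgroup.index_mul_card (Subgroup.zpowers a)
    rw [Nat.card_zpowers, ha, (CfsgLib.Order168.card_sylow2 h).1 T] at h1
    omega
  have hmem : ∀ t ∈ (T : Subgroup G), t ∈ Subgroup.zpowers (a : G) ∨ ∃ i : ℤ, t = (x : G) * (a : G) ^ i := by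
    intro t ht
    by_cases hu : (⟨t, ht⟩ : (T : Subgroup G)) ∈ Subgroup.zpowers a
    · obtain ⟨i, hi⟩ := hu
      exact Or.inl ⟨i, by simpa using congrArg Subtype.val hi⟩
    · have hm : x⁻¹ * ⟨t, ht⟩ ∈ Subgroup.zpowers a :=
        (Subgroup.mul_mem_iff_of_index_two hidx).2 (iff_of_false (fun h' => hxn ((Subgroup.inv_mem_iff _).1 h')) hu)
      obtain ⟨i, hi⟩ := hm
      refine Or.inr ⟨i, ?_⟩
      have hv := congrArg Subtype.val (show x * a ^ i = ⟨t, ht⟩ by rw [show a ^ i = x⁻¹ * ⟨t, ht⟩ from hi, mul_inv_cancel_left])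
      simpa using hv.symm
  have hxa' : (x : G) * (a : G) * (x : G)⁻¹ = (a : G)⁻¹ := by simpa using congrArg Subtype.val hxa
  have ha' : orderOf (a : G) = 4 := by rw [Subgroup.orderOf_coe, ha]
  have hinv : ((a : G) ^ 2)⁻¹ = (a : G) ^ 2 := by
    rw [inv_eq_iff_mul_eq_one, ← pow_add]; exact orderOf_dvd_iff_pow_eq_one.1 (by rw [ha'])
  have hcx : Commute (x : G) ((a : G) ^ 2) := by
    show _ * _ = _ * _
    rw [← mul_inv_eq_iff_eq_mul, ← conj_pow, hxa', inv_pow, hinv]
  refine ⟨a, x, a.2, x.2, ha', by simpa using congrArg Subtype.val hx2, fun ⟨i, hi⟩ => hxn ⟨i, Subtype.ext (by simpa using hi)⟩,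
    hxa', hmem, fun t ht => ?_⟩
  rcases hmem t ht with ⟨i, rfl⟩ | ⟨i, rfl⟩
  · exact (((Commute.refl (a : G)).zpow_left i).pow_right 2).eq
  · exact (hcx.mul_left (((Commute.refl (a : G)).zpow_left i).pow_right 2)).eq

/-- The four-groups of a Sylow 2-subgroup. -/
theorem klein_two [Fact (Nat.Prime 2)] (T : Sylow 2 G) : ∃ U W : Subgroup G, IsKleinFour U ∧ IsKleinFour W ∧ U ≠ W ∧
    U ≤ (T : Subgroup G) ∧ W ≤ (T : Subgroup G) ∧
    (∀ V : Subgroup G, IsKleinFour V → V ≤ (T : Subgroup G) → V = U ∨ V = W) ∧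
    (T : Subgroup G) ≤ Subgroup.normalizer (U : Set G) ∧ (T : Subgroup G) ≤ Subgroup.normalizer (W : Set G) := by
  obtain ⟨a, x, hat, hxt, ha, hxx, hxn, hxa, hmem, hzc⟩ := sylow_frame h T
  have ha4 : ∀ i : ℤ, a ^ i = 1 ↔ (4 : ℤ) ∣ i := fun i => by
    rw [← orderOf_dvd_iff_zpow_eq_one, ha]; rfl
  have hxi : ∀ i : ℤ, a ^ i * x = x * a ^ (-i) := fun i => by
    have : x * a ^ (-i) * x⁻¹ = a ^ i := by rw [← conj_zpow, hxa, inv_zpow', neg_neg]
    rw [← this, inv_mul_cancel_right]
  have hout : ∀ i : ℤ, (x * a ^ i) * (x * a ^ i) = 1 := fun i => by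
    rw [mul_assoc, ← mul_assoc (a ^ i), hxi, mul_assoc x, ← zpow_add, neg_add_cancel, zpow_zero, mul_one, hxx]
  have hxne : ∀ i j : ℤ, x * a ^ i ≠ a ^ j := fun i j e => hxn ⟨j - i, by
    show a ^ (j - i) = x
    rw [sub_eq_add_neg, zpow_add, ← e, zpow_neg, mul_inv_cancel_right]⟩
  set z := a ^ 2 with hz
  have hzz : z * z = 1 := by rw [hz, ← pow_add]; exact orderOf_dvd_iff_pow_eq_one.1 (by rw [ha])
  have hz1 : z ≠ 1 := fun e => by
    have := orderOf_dvd_iff_pow_eq_one.2 e
    rw [ha] at this; norm_num at this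
  have hzz' : z = a ^ (2 : ℤ) := by rw [hz]; exact (zpow_natCast a 2).symm
  obtain ⟨U, hU, hzU, hxU, hUc⟩ := exists_klein hzz hxx (hzc x hxt).symm hz1 (fun e => hxne 0 0 (by simp [e]))
    (fun e => hxne 0 2 (by rw [zpow_zero, mul_one, ← hzz', e]))
  obtain ⟨W, hW, hzW, hxW, hWc⟩ := exists_klein hzz (hout 1) (hzc (x * a ^ (1 : ℤ)) (mul_mem hxt (zpow_mem hat 1))).symm hz1
    (fun e => hxne 1 0 (by simpa using e)) (fun e => hxne 1 2 (by rw [← hzz', e]))
  have hzt : z ∈ (T : Subgroup G) := pow_mem hat 2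
  have hUT : U ≤ (T : Subgroup G) := fun v hv => by
    rcases hUc v hv with rfl | rfl | rfl | rfl
    exacts [one_mem _, hzt, hxt, mul_mem hzt hxt]
  have hWT : W ≤ (T : Subgroup G) := fun v hv => by
    rcases hWc v hv with rfl | rfl | rfl | rfl
    exacts [one_mem _, hzt, mul_mem hxt (zpow_mem hat 1), mul_mem hzt (mul_mem hxt (zpow_mem hat 1))]
  have hxnW : x ∉ W := fun hx => by
    rcases hWc x hx with e | e | e | e
    · exact hxne 0 0 (by simp [e])
    · exact hxne 0 2 (by rw [zpow_zero, mul_one, ← hzz', ← e])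
    · have := (ha4 1).1 (mul_eq_left.mp e.symm)
      norm_num at this
    · rw [hzz', ← mul_assoc, hxi, mul_assoc, ← zpow_add] at e
      have := (ha4 (-2 + 1)).1 (mul_eq_left.mp e.symm)
      norm_num at this
  have hall : ∀ V : Subgroup G, IsKleinFour V → V ≤ (T : Subgroup G) → V = U ∨ V = W := by
    intro V hV hVT
    haveI := hV
    have hV4 : Nat.card V = 4 := IsKleinFour.card_four
    -- an element outside the cyclic part
    obtain ⟨v, hv, hvn⟩ : ∃ v ∈ V, v ∉ Subgroup.zpowers a := by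
      by_contra hall
      push Not at hall
      haveI : IsCyclic V := isCyclic_of_injective (Subgroup.inclusion hall) (Subgroup.inclusion_injective hall)
      exact IsKleinFour.not_isCyclic (G := V) inferInstance
    obtain ⟨i, rfl⟩ := (hmem v (hVT hv)).resolve_left hvn
    have hzV : z ∈ V := by
      by_contra hzV
      -- all elements lie among four, two of which multiply to the central involution
      have hsub : ∀ w ∈ V, w = 1 ∨ w = x * a ^ i := by
        intro w hw
        have hww : w * (x * a ^ i) ∈ V := mul_mem hw hv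
        rcases hmem w (hVT hw) with ⟨j, rfl⟩ | ⟨j, rfl⟩
        · have h2 := klein_sq hV hw
          rw [← zpow_add, ha4] at h2
          obtain ⟨m, hm⟩ : (2 : ℤ) ∣ j := by omega
          rcases Int.even_or_odd' m with ⟨r, hr | hr⟩
          · exact Or.inl ((ha4 j).2 (by omega))
          · exfalso; apply hzV
            have : (fun x => a ^ x) j = z := by
              show a ^ j = z
              rw [hzz', zpow_eq_zpow_iff_modEq, ha, Int.modEq_iff_dvd]; push_cast; omega
            rw [← this]; exact hw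
        · have h2 : a ^ (i - j) ∈ V := by
            have := mul_mem (inv_mem hw) hv
            rwa [mul_inv_rev, mul_assoc, inv_mul_cancel_left, ← zpow_neg, ← zpow_add, neg_add_eq_sub] at this
          have h3 := klein_sq hV h2
          rw [← zpow_add, ha4] at h3
          obtain ⟨m, hm⟩ : (2 : ℤ) ∣ i - j := by omega
          rcases Int.even_or_odd' m with ⟨r, hr | hr⟩
          · refine Or.inr ?_
            rw [mul_right_inj, zpow_eq_zpow_iff_modEq, ha, Int.modEq_iff_dvd]; push_cast; omega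
          · exfalso; apply hzV
            have : a ^ (i - j) = z := by rw [hzz', zpow_eq_zpow_iff_modEq, ha, Int.modEq_iff_dvd]; push_cast; omega
            rwa [← this]
      have : Nat.card V ≤ 2 := by
        have hle : (V : Set G) ⊆ {1, x * a ^ i} := fun w hw => hsub w hw
        have := Set.ncard_le_ncard hle (Set.toFinite _)
        rw [← Nat.card_coe_set_eq] at this
        exact this.trans (Set.ncard_insert_le _ _ |>.trans (by simp))
      omega
    have hfin : ∀ (Y : Subgroup G), IsKleinFour Y → z ∈ Y → ∀ w, w ∈ Y → w ∈ V → w ∉ Subgroup.zpowers a → V = Y := by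
      intro Y hY hzY w hwY hwV hwn
      haveI := hY
      refine (Subgroup.eq_of_le_of_card_ge (H := V ⊓ Y) inf_le_left ?_).symm.trans
        (Subgroup.eq_of_le_of_card_ge (H := V ⊓ Y) inf_le_right ?_)
      all_goals
        rw [IsKleinFour.card_four]
        have hd : Nat.card ↥(V ⊓ Y) ∣ 4 := hV4 ▸ Subgroup.card_dvd_of_le inf_le_left
        by_contra hlt
        have h3 : ({1, z, w} : Set G) ⊆ (V ⊓ Y : Subgroup G) := by
          rintro u (rfl | rfl | rfl)
          exacts [one_mem _, ⟨hzV, hzY⟩, ⟨hwV, hwY⟩]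
        have h4 := Set.ncard_le_ncard h3 (Set.toFinite _)
        rw [Set.ncard_eq_three.mpr ⟨1, z, w, hz1.symm, fun e => hwn (e ▸ one_mem _),
          fun e => hwn (e ▸ pow_mem (Subgroup.mem_zpowers a) 2), rfl⟩, ← Nat.card_coe_set_eq] at h4
        have h4' : 3 ≤ Nat.card ↥(V ⊓ Y) := h4
        have := Nat.le_of_dvd (by norm_num) hd
        interval_cases (Nat.card ↥(V ⊓ Y)) <;> omega
    obtain ⟨m, hm | hm⟩ := Int.even_or_odd' i
    · refine Or.inl (hfin U hU hzU (x * a ^ i) ?_ hv hvn)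
      rw [hm, zpow_mul, ← hzz']
      exact mul_mem hxU (zpow_mem hzU m)
    · refine Or.inr (hfin W hW hzW (x * a ^ i) ?_ hv hvn)
      rw [hm, add_comm, zpow_add, zpow_mul, ← mul_assoc, ← hzz']
      exact mul_mem hxW (zpow_mem hzW m)
  have hUW : U ≠ W := fun e => hxnW (e ▸ hxU)
  have hkey : ∀ s ∈ (T : Subgroup G), ∀ Y : Subgroup G, IsKleinFour Y → Y ≤ (T : Subgroup G) →
      Y.map (MulAut.conj s).toMonoidHom = U ∨ Y.map (MulAut.conj s).toMonoidHom = W := by
    intro s hs Y hY hYT
    haveI := hY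
    refine hall _ ⟨?_, ?_⟩ ?_
    · rw [Subgroup.card_map_of_injective (MulEquiv.injective (MulAut.conj s)), IsKleinFour.card_four]
    · rw [← Monoid.exponent_eq_of_mulEquiv (Y.equivMapOfInjective _ (MulEquiv.injective (MulAut.conj s))),
        IsKleinFour.exponent_two]
    · rintro _ ⟨y, hy, rfl⟩; exact mul_mem (mul_mem hs (hYT hy)) (inv_mem hs)
  have hx' : ∀ t ∈ (T : Subgroup G), t * x * t⁻¹ ∈ U := by
    intro t ht
    rcases hmem t ht with ⟨j, rfl⟩ | ⟨j, rfl⟩
    · show a ^ j * x * (a ^ j)⁻¹ ∈ U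
      rw [hxi, mul_assoc, ← zpow_neg, ← zpow_add, show -j + -j = 2 * -j by ring, zpow_mul, ← hzz']
      exact mul_mem hxU (zpow_mem hzU _)
    · rw [mul_inv_rev, ← zpow_neg, mul_assoc x, hxi,
        show x * (x * a ^ (-j)) * (a ^ (-j) * x⁻¹) = x * (x * (a ^ (-j) * a ^ (-j))) * x⁻¹ by group, ← zpow_add,
        ← mul_assoc x x, hxx, one_mul, show -j + -j = 2 * -j by ring, zpow_mul, ← hzz', inv_eq_of_mul_eq_one_right hxx]
      exact mul_mem (zpow_mem hzU _) hxU
  have hUn : ∀ t ∈ (T : Subgroup G), U.map (MulAut.conj t).toMonoidHom = U := by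
    intro t ht
    refine (hkey t ht U hU hUT).resolve_right fun e => ?_
    have h1 : t * x * t⁻¹ ∈ W := e ▸ ⟨x, hxU, rfl⟩
    rcases hUc _ (hx' t ht) with f | f | f | f
    · exact hxne 0 0 (by rw [conj_eq_one_iff.mp f]; simp)
    · exact hxne 0 2 (by
        have hcz : Commute t z := hzc t ht
        have hxz : x = z := by
          apply mul_left_cancel (a := t)
          apply mul_right_cancel (b := t⁻¹)
          rw [f, hcz.eq, mul_inv_cancel_right]
        rw [zpow_zero, mul_one, ← hzz', hxz])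
    · exact hxnW (f ▸ h1)
    · refine hxnW ?_
      have := mul_mem hzW (f ▸ h1)
      rwa [← mul_assoc, hzz, one_mul] at this
  have hn1 : (T : Subgroup G) ≤ Subgroup.normalizer (U : Set G) := fun t ht => by
    rw [Subgroup.mem_normalizer_iff_map_conj_eq]; exact hUn t ht
  have hn2 : (T : Subgroup G) ≤ Subgroup.normalizer (W : Set G) := fun t ht => by
    rw [Subgroup.mem_normalizer_iff_map_conj_eq]
    refine (hkey t ht W hW hWT).resolve_left fun e => hUW ?_
    exact (Subgroup.map_injective (MulEquiv.injective (MulAut.conj t)) (e.trans (hUn t ht).symm)).symm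
  exact ⟨U, W, hU, hW, hUW, hUT, hWT, hall, hn1, hn2⟩

end CfsgLib.Order168Sub
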