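import Mathlib
import Cfsg.Agent.Lib.Order168

/-! All simple groups of order 168 are isomorphic to one permutation group of degree eight. -/

set_option autoImplicit false
set_option linter.style.haveILetI false

namespace CfsgLib.SmallIso

open Equiv (Perm)

/-- translation -/
def pa : Perm (Option (ZMod 7)) where
  toFun := Option.map (· + 1)
  invFun := Option.map (· - 1)
  left_inv := by decide
  right_inv := by decide

/-- doubling -/
def pb : Perm (Option (ZMod 7)) where
  toFun := Option.map (2 * ·)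
  invFun := Option.map (4 * ·)
  left_inv := by decide
  right_inv := by decide

/-- `z ↦ c / z`, with `z⁻¹` computed as `z ^ 5` -/
def inv7 (c : ZMod 7) : Option (ZMod 7) → Option (ZMod 7)
  | none => some 0
  | some z => if z = 0 then none else some (c * z ^ 5)

/-- `z ↦ -1 / z` -/
def pw : Perm (Option (ZMod 7)) where
  toFun := inv7 6
  invFun := inv7 6
  left_inv := by decide
  right_inv := by decide

theorem pb_facts : (∀ o, pb o = o → o = none ∨ o = some 0) ∧ (∀ o, pb⁻¹ o = o → o = none ∨ o = some 0) ∧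
    pb none = none ∧ pb (some 0) = some 0 := by decide +kernel

theorem one_ne : (1 : ZMod 7) ≠ 0 := by decide
theorem none_ne : (none : Option (ZMod 7)) ≠ some 1 := by decide
theorem pb_one : pb (some 1) = some 2 := by decide +kernel
theorem pb_two : pb (some 2) = some 4 := by decide +kernel

theorem table_aux : ∀ c : ZMod 7, c ≠ 0 → c ≠ 1 → pb⁻¹ (pb⁻¹ (some c)) ≠ some 4 → pb⁻¹ (some c) ≠ some 2 →
    ∃ k < 3, (pb ^ k * pw) none = some 0 ∧ (pb ^ k * pw) (some 0) = none ∧ (pb ^ k * pw) (some 1) = some c ∧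
      (pb ^ k * pw) (some 2) = pb⁻¹ (some c) ∧ (pb ^ k * pw) (some 4) = pb⁻¹ (pb⁻¹ (some c)) ∧
      ∀ o, (o = none ∨ o = some 0 ∨ o = some 1 ∨ o = some 2 ∨ o = some 4) ∨
        ((pb ^ k * pw) ((pb ^ k * pw) o) = o ∧
          ((pb ^ k * pw) o = some 1 ∨ (pb ^ k * pw) o = some 2 ∨ (pb ^ k * pw) o = some 4)) := by
  decide +kernel

theorem table {g : Option (ZMod 7) → Option (ZMod 7)} {c : ZMod 7} (hc0 : c ≠ 0) (h0 : g none = some 0)
    (h0' : g (some 0) = none) (h1 : g (some 1) = some c) (h2 : g (some 2) = pb⁻¹ (some c))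
    (h4 : g (some 4) = pb⁻¹ (pb⁻¹ (some c))) (hfix : ∀ o, g o ≠ o) (hinv : ∀ o, g (g o) = o) :
    ∃ k : ℕ, ∀ o, g o = (pb ^ k * pw) o := by
  obtain ⟨k, -, a, b, d, e, f, rest⟩ := table_aux c hc0 (fun x => hfix _ (h1.trans (congrArg some x)))
    (fun x => hfix _ (h4.trans x)) (fun x => hfix _ (h2.trans x))
  refine ⟨k, fun o => ?_⟩
  have low : ∀ o', (o' = none ∨ o' = some 0 ∨ o' = some 1 ∨ o' = some 2 ∨ o' = some 4) → g o' = (pb ^ k * pw) o' := by
    rintro _ (rfl | rfl | rfl | rfl | rfl)
    · rw [h0, a]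
    · rw [h0', b]
    · rw [h1, d]
    · rw [h2, e]
    · rw [h4, f]
  rcases rest o with ho | ⟨hii, ho⟩
  · exact low o ho
  · have := low _ (Or.inr (Or.inr ho))
    rw [hii] at this
    exact ((congrArg g this.symm).trans (hinv _))

/-- the standard group -/
def K168 : Subgroup (Perm (Option (ZMod 7))) := Subgroup.closure {pa, pb, pw}

universe u

theorem exists_iso {G : Type u} [Group G] [Finite G] [IsSimpleGroup G] (h : Nat.card G = 168) :
    Nonempty (G ≃* K168) := by
  classical
  haveI : Fact (Nat.Prime 2) := ⟨Nat.prime_two⟩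
  haveI : Fact (Nat.Prime 3) := ⟨Nat.prime_three⟩
  haveI : Fact (Nat.Prime 7) := ⟨by norm_num⟩
  obtain ⟨P⟩ := (inferInstance : Nonempty (Sylow 7 G))
  have hP := (CfsgLib.Order168.card_sylow7 h).1
  set N := Subgroup.normalizer ((P : Subgroup G) : Set G) with hN
  have hidx : N.index = 8 := (Sylow.card_eq_index_normalizer P).symm.trans (CfsgLib.Order168.card_sylow7 h).2
  have hcN : Nat.card N = 21 := by
    have := Subgroup.card_mul_index N
    rw [hidx, h] at this; omega
  have hNtop : N ≠ ⊤ := fun e => by rw [e, Subgroup.index_top] at hidx; norm_num at hidx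
  haveI : (P : Subgroup G).Normal → False := fun hn => hNtop (Subgroup.normalizer_eq_top_iff.2 hn)
  obtain ⟨⟨s, hsP⟩, hso⟩ := exists_prime_orderOf_dvd_card' 7 (by rw [hP P] : 7 ∣ Nat.card (P : Subgroup G))
  rw [Subgroup.orderOf_mk] at hso
  have hPs : (P : Subgroup G) = Subgroup.zpowers s :=
    (Subgroup.eq_of_le_of_card_ge (Subgroup.zpowers_le.2 hsP) (by rw [hP, Nat.card_zpowers, hso])).symm
  have hsN : s ∈ N := Subgroup.le_normalizer hsP
  have in_P : ∀ x ∈ N, x ^ 7 = 1 → x ∈ (P : Subgroup G) := by
    intro x hx hx7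
    haveI : ((P : Subgroup G).subgroupOf N).Normal := Subgroup.normal_in_normalizer
    have hi : ((P : Subgroup G).subgroupOf N).index = 3 := by
      have := Subgroup.card_mul_index ((P : Subgroup G).subgroupOf N)
      rw [Nat.card_congr (Subgroup.subgroupOfEquivOfLe Subgroup.le_normalizer).toEquiv, hP, hcN] at this
      omega
    have h3 := Subgroup.pow_index_mem ((P : Subgroup G).subgroupOf N) ⟨x, hx⟩
    rw [hi, Subgroup.mem_subgroupOf] at h3
    have h15 := pow_mem h3 5
    rw [SubmonoidClass.coe_pow, ← pow_mul] at h15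
    rwa [show 3 * 5 = 7 * 2 + 1 by norm_num, pow_succ, pow_mul, hx7, one_pow, one_mul] at h15
  -- an element of order three doubling `s`
  obtain ⟨t, htN, hto, hts⟩ : ∃ t ∈ N, orderOf t = 3 ∧ t * s * t⁻¹ = s ^ 2 := by
    obtain ⟨⟨t, htN⟩, hto⟩ := exists_prime_orderOf_dvd_card' (G := N) 3 (by rw [hcN]; norm_num)
    rw [Subgroup.orderOf_mk] at hto
    have hm := (Subgroup.mem_normalizer_iff.1 htN s).1 hsP
    rw [hPs] at hm
    obtain ⟨k, hk⟩ := (isOfFinOrder_of_finite s).mem_powers_iff_mem_zpowers.mpr hm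
    have hk' : t * s * t⁻¹ = s ^ (k % 7) := by rw [← hso, pow_mod_orderOf]; exact hk.symm
    have hlt : k % 7 < 7 := Nat.mod_lt _ (by norm_num)
    set j := k % 7
    have h2 : ∀ i, t * s ^ i * t⁻¹ = s ^ (j * i) := fun i => by rw [← conj_pow, hk', ← pow_mul]
    have h3 : t ^ 3 * s * (t ^ 3)⁻¹ = s ^ (j * j * j) := by
      calc t ^ 3 * s * (t ^ 3)⁻¹ = t * (t * (t * s * t⁻¹) * t⁻¹) * t⁻¹ := by rw [pow_three]; group
        _ = s ^ (j * j * j) := by rw [hk', h2, h2, mul_assoc]
    have ht3 : t ^ 3 = 1 := hto ▸ pow_orderOf_eq_one t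
    rw [ht3, one_mul, inv_one, mul_one] at h3
    have hmod : j * j * j % 7 = 1 := by
      have := (pow_eq_pow_iff_modEq (x := s) (n := j * j * j) (m := 1)).1 (by rw [pow_one]; exact h3.symm)
      rw [hso, Nat.ModEq] at this
      omega
    have hj1 : j ≠ 1 := by
      intro e
      rw [e, pow_one, mul_inv_eq_iff_eq_mul] at hk'
      have hc := CfsgLib.Order168.centralizer7 h hso
      have htc : t ∈ Subgroup.zpowers s := hc ▸ Subgroup.mem_centralizer_singleton_iff.2 hk'
      have := orderOf_dvd_of_mem_zpowers htc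
      rw [hto, hso] at this
      norm_num at this
    obtain hj | hj : j = 2 ∨ j = 4 := by
      clear_value j
      interval_cases j <;> omega
    · exact ⟨t, htN, hto, by rw [hk', hj]⟩
    · refine ⟨t ^ 2, pow_mem htN 2, ?_, ?_⟩
      · rw [orderOf_pow, hto]; norm_num
      · calc t ^ 2 * s * (t ^ 2)⁻¹ = t * (t * s * t⁻¹) * t⁻¹ := by rw [sq]; group
          _ = s ^ (7 * 2 + 2) := by rw [hk', h2, hj]
          _ = s ^ 2 := by rw [pow_add, pow_mul, show s ^ 7 = 1 from hso ▸ pow_orderOf_eq_one s, one_pow, one_mul]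
  -- the action on the eight cosets
  set X := G ⧸ N
  have hstab : ∀ (g : G) (y : G), g • (y : X) = (y : X) ↔ y⁻¹ * g * y ∈ N := by
    intro g y
    show ((g * y : G) : X) = (y : X) ↔ _
    rw [eq_comm, QuotientGroup.eq, mul_assoc]
  set xi : X := ((1 : G) : X) with hxi
  have hsfix : ∀ x : X, s • x = x → x = xi := by
    intro x hx
    induction x using QuotientGroup.induction_on with
    | _ g =>
      have h1 := (hstab s g).1 hx
      have hs7 : s ^ 7 = 1 := hso ▸ pow_orderOf_eq_one s
      have hmem := in_P _ h1 (by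
        rw [show g⁻¹ * s * g = g⁻¹ * s * g⁻¹⁻¹ by rw [inv_inv], conj_pow, hs7, mul_one, mul_inv_cancel])
      have hne : g⁻¹ * s * g ≠ 1 := fun e => by
        have : s = 1 := by
          calc s = g * (g⁻¹ * s * g) * g⁻¹ := by group
            _ = 1 := by rw [e, mul_one, mul_inv_cancel]
        rw [this, orderOf_one] at hso; norm_num at hso
      have hz : Subgroup.zpowers (g⁻¹ * s * g) = (P : Subgroup G) :=
        Subgroup.eq_of_le_of_card_ge (Subgroup.zpowers_le.2 hmem) (by
          rw [Nat.card_zpowers, orderOf_eq_prime (p := 7) (by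
            rw [show g⁻¹ * s * g = g⁻¹ * s * g⁻¹⁻¹ by rw [inv_inv], conj_pow, hs7, mul_one, mul_inv_cancel]) hne, hP])
      have hg : g⁻¹ ∈ N := by
        refine Subgroup.mem_normalizer_iff_map_conj_eq.2 ?_
        rw [← hz]
        conv_lhs => rw [hz, hPs]
        rw [MonoidHom.map_zpowers]
        congr 1
        show g⁻¹ * s * g⁻¹⁻¹ = _
        rw [inv_inv]
      exact (QuotientGroup.eq.2 (by rw [mul_one]; exact hg))
  have hsxi : s • xi = xi := (hstab s 1).2 (by simpa using hsN)
  have htxi : t • xi = xi := (hstab t 1).2 (by simpa using htN)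
  have hX : Nat.card X = 8 := by rw [← hidx]; rfl
  haveI : Nontrivial X := Finite.one_lt_card_iff_nontrivial.1 (by omega)
  obtain ⟨x1, hx1⟩ := exists_ne xi
  have orbit : ∀ y : X, y ≠ xi → Function.Bijective (fun o : Option (ZMod 7) => o.elim xi (fun i => s ^ i.val • y)) := by
    intro y hy
    have hper : ∀ i : ℕ, s ^ i • y = y → 7 ∣ i := by
      intro i hi
      by_contra hn
      refine hy (hsfix y ?_)
      obtain ⟨u, -, hu⟩ := Nat.exists_mul_mod_eq_one_of_coprime
        (((by norm_num : Nat.Prime 7).coprime_iff_not_dvd.2 hn).symm) (by norm_num)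
      have hfix : ∀ v : ℕ, (s ^ i) ^ v • y = y := fun v => by
        induction v with
        | zero => simp
        | succ v ih => rw [pow_succ, mul_smul, hi, ih]
      have e : (s ^ i) ^ u = s := by
        rw [← pow_mul, ← pow_mod_orderOf, hso, hu, pow_one]
      exact e ▸ hfix u
    refine (Nat.bijective_iff_injective_and_card _).2 ⟨?_, by rw [hX, Nat.card_eq_fintype_card]; rfl⟩
    have hne : ∀ i : ℕ, s ^ i • y ≠ xi := fun i e => hy (by
      have h' : s ^ i • xi = xi := by
        clear e
        induction i with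
        | zero => simp
        | succ i ih => rw [pow_succ, mul_smul, hsxi, ih]
      exact smul_left_cancel (s ^ i) (e.trans h'.symm))
    rintro (_ | i) (_ | j) e <;> simp only [Option.elim] at e
    · rfl
    · exact absurd e.symm (hne _)
    · exact absurd e (hne _)
    · congr 1
      apply ZMod.val_injective
      have hi := ZMod.val_lt i
      have hj := ZMod.val_lt j
      rcases le_total i.val j.val with hle | hle
      · have h' : s ^ (j.val - i.val) • y = y := by
          apply smul_left_cancel (s ^ i.val)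
          rw [← mul_smul, ← pow_add, Nat.add_sub_cancel' hle, e]
        have := hper _ h'
        omega
      · have h' : s ^ (i.val - j.val) • y = y := by
          apply smul_left_cancel (s ^ j.val)
          rw [← mul_smul, ← pow_add, Nat.add_sub_cancel' hle, e]
        have := hper _ h'
        omega
  have spow : ∀ a b : ℕ, a % 7 = b % 7 → s ^ a = s ^ b := fun a b e => by
    rw [← pow_mod_orderOf s a, ← pow_mod_orderOf s b, hso, e]
  have tpow : ∀ i : ℕ, t * s ^ i = s ^ (2 * i) * t := fun i => by
    have := (conj_pow (i := i) (a := t) (b := s)).symm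
    rw [hts, ← pow_mul, mul_inv_eq_iff_eq_mul] at this
    exact this
  -- a second fixed point of `t`
  obtain ⟨y, hy, hty⟩ : ∃ y : X, y ≠ xi ∧ t • y = y := by
    obtain ⟨o, ho⟩ := (orbit x1 hx1).2 (t • x1)
    rcases o with _ | j
    · simp only [Option.elim] at ho
      exact absurd (smul_left_cancel t (ho.symm.trans htxi.symm)) hx1
    simp only [Option.elim] at ho
    refine ⟨s ^ (-j).val • x1, fun e => ?_, ?_⟩
    · have h' := (orbit x1 hx1).1 (a₁ := some (-j)) (a₂ := none) e
      exact Option.some_ne_none _ h'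
    · rw [← mul_smul, tpow, mul_smul, ← ho, ← mul_smul, ← pow_add]
      congr 1
      refine spow _ _ ?_
      have := congrArg ZMod.val (show (2 : ZMod 7) * (-j) + j = -j by ring)
      rw [ZMod.val_add, ZMod.val_mul] at this
      rw [show (2 : ZMod 7).val = 2 from rfl] at this
      have hlt := ZMod.val_lt (-j)
      omega
  set ε := Equiv.ofBijective _ (orbit y hy) with hε
  set f : G →* Perm (Option (ZMod 7)) := ε.symm.permCongrHom.toMonoidHom.comp (MulAction.toPermHom G X) with hf
  have fapp : ∀ (g : G) (o o' : Option (ZMod 7)), g • ε o = ε o' → f g o = o' := by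
    intro g o o' e
    show ε.symm (g • ε o) = o'
    rw [e, Equiv.symm_apply_apply]
  have finv : ∀ (g : G) (o : Option (ZMod 7)), g • ε o = ε (f g o) := fun g o => by
    show g • ε o = ε (ε.symm (g • ε o))
    rw [Equiv.apply_symm_apply]
  have hfinj : Function.Injective f := by
    refine (ε.symm.permCongrHom.injective).comp ?_
    rw [← MonoidHom.ker_eq_bot_iff, ← Subgroup.normalCore_eq_ker]
    rcases (inferInstance : N.normalCore.Normal).eq_bot_or_eq_top with e | e
    · exact e
    · exact absurd (top_le_iff.1 (e ▸ N.normalCore_le)) hNtop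
  have enone : ε none = xi := rfl
  have esome : ∀ i : ZMod 7, ε (some i) = s ^ i.val • y := fun i => rfl
  have fs : f s = pa := by
    refine Equiv.ext fun o => fapp _ _ _ ?_
    rcases o with _ | i
    · exact hsxi
    · show s • ε (some i) = ε (some (i + 1))
      rw [esome, esome, ← mul_smul, ← pow_succ']
      congr 1
      refine spow _ _ ?_
      rw [ZMod.val_add, show (1 : ZMod 7).val = 1 from rfl]
      omega
  have ft : f t = pb := by
    refine Equiv.ext fun o => fapp _ _ _ ?_
    rcases o with _ | i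
    · exact htxi
    · show t • ε (some i) = ε (some (2 * i))
      rw [esome, esome, ← mul_smul, tpow, mul_smul, hty]
      congr 1
      refine spow _ _ ?_
      rw [ZMod.val_mul, show (2 : ZMod 7).val = 2 from rfl]
      omega
  -- the involution inverting `t`
  obtain ⟨w, hw2, hw1, hwt⟩ : ∃ w : G, w * w = 1 ∧ w ≠ 1 ∧ w * t * w⁻¹ = t⁻¹ := by
    obtain ⟨h3c, h28⟩ := CfsgLib.Order168.card_sylow3 h
    obtain ⟨Q, hQ⟩ := (IsPGroup.of_card (n := 1) (by rw [Nat.card_zpowers, hto, pow_one]) :
      IsPGroup 3 (Subgroup.zpowers t)).exists_le_sylow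
    have hQe : Subgroup.zpowers t = (Q : Subgroup G) :=
      Subgroup.eq_of_le_of_card_ge hQ (by rw [h3c, Nat.card_zpowers, hto])
    set NQ := Subgroup.normalizer ((Q : Subgroup G) : Set G)
    have hN6 : Nat.card NQ = 6 := by
      have := Subgroup.index_mul_card NQ
      rw [show NQ.index = Nat.card (Sylow 3 G) from (Sylow.card_eq_index_normalizer Q).symm, h28, h] at this
      omega
    obtain ⟨⟨w, hw⟩, hwo⟩ := exists_prime_orderOf_dvd_card' (G := NQ) 2 (by rw [hN6]; norm_num)
    rw [Subgroup.orderOf_mk] at hwo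
    have hw2 : w * w = 1 := by rw [← sq, ← hwo]; exact pow_orderOf_eq_one w
    have hw1 : w ≠ 1 := fun e => by rw [e, orderOf_one] at hwo; norm_num at hwo
    have hm := (Subgroup.mem_normalizer_iff.1 hw t).1 (hQe ▸ Subgroup.mem_zpowers t)
    rw [← hQe] at hm
    obtain ⟨k, hk⟩ := (isOfFinOrder_of_finite t).mem_powers_iff_mem_zpowers.mpr hm
    have hk' : w * t * w⁻¹ = t ^ (k % 3) := by rw [← hto, pow_mod_orderOf]; exact hk.symm
    have hlt : k % 3 < 3 := Nat.mod_lt _ (by norm_num)
    refine ⟨w, hw2, hw1, ?_⟩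
    interval_cases hj : k % 3
    · rw [pow_zero, conj_eq_one_iff] at hk'
      rw [hk', orderOf_one] at hto; norm_num at hto
    · rw [pow_one, mul_inv_eq_iff_eq_mul] at hk'
      have hc := CfsgLib.Order168.centralizer3 h hto
      have : w ∈ Subgroup.zpowers t := hc ▸ Subgroup.mem_centralizer_singleton_iff.2 hk'
      have := orderOf_dvd_of_mem_zpowers this
      rw [hwo, hto] at this; norm_num at this
    · rw [hk', eq_inv_iff_mul_eq_one, ← pow_succ]
      have := pow_orderOf_eq_one t
      rwa [hto] at this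
  have hwfix : ∀ o, f w o ≠ o := by
    intro o e
    have h1 := finv w o
    rw [e] at h1
    generalize ε o = x at h1
    induction x using QuotientGroup.induction_on with
    | _ g =>
      have h2 := (hstab w g).1 h1
      have ho : orderOf (g⁻¹ * w * g) = 2 := by
        have : g⁻¹ * w * g = MulAut.conj g⁻¹ w := by simp
        rw [this, MulEquiv.orderOf_eq]
        exact orderOf_eq_prime (by rw [sq]; exact hw2) hw1
      have := orderOf_dvd_natCard (⟨_, h2⟩ : N)
      rw [Subgroup.orderOf_mk, ho, hcN] at this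
      norm_num at this
  have hww : ∀ o, f w (f w o) = o := fun o => by
    rw [← Equiv.Perm.mul_apply, ← map_mul, hw2, map_one]; rfl
  have hcomm : ∀ o, f w (pb o) = pb⁻¹ (f w o) := fun o => by
    rw [← ft, ← Equiv.Perm.mul_apply, ← map_mul, ← map_inv, ← Equiv.Perm.mul_apply, ← map_mul,
      (mul_inv_eq_iff_eq_mul.1 hwt)]
  have hpb := pb_facts
  have h0 : f w none = some 0 := by
    rcases hpb.2.1 _ ((hcomm none).symm.trans (by rw [hpb.2.2.1])) with e | e
    · exact absurd e (hwfix none)
    · exact e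
  have h0' : f w (some 0) = none := by rw [← h0, hww]
  obtain ⟨c, hc⟩ : ∃ c, f w (some 1) = some c := by
    rcases hv : f w (some 1) with _ | c
    · exact absurd (Option.some_injective _ ((f w).injective (hv.trans h0'.symm))) one_ne
    · exact ⟨c, rfl⟩
  have hc0 : c ≠ 0 := fun e => by
    rw [e] at hc
    exact none_ne ((f w).injective (h0.trans hc.symm))
  have h2 : f w (some 2) = pb⁻¹ (some c) := by rw [← hc, ← hcomm, pb_one]
  have h4 : f w (some 4) = pb⁻¹ (pb⁻¹ (some c)) := by rw [← h2, ← hcomm, pb_two]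
  obtain ⟨k, hk'⟩ := table (g := f w) hc0 h0 h0' hc h2 h4 hwfix hww
  have hk : f w = pb ^ k * pw := Equiv.ext hk'
  -- `s`, `t`, `w` generate
  have hgen : Subgroup.closure ({s, t, w} : Set G) = ⊤ := by
    set Y := Subgroup.closure ({s, t, w} : Set G)
    have hsY : s ∈ Y := Subgroup.subset_closure (by simp)
    have htY : t ∈ Y := Subgroup.subset_closure (by simp)
    have hwY : w ∈ Y := Subgroup.subset_closure (by simp)
    by_contra hne
    have h3 : 3 ∣ Nat.card Y := hto ▸ Subgroup.orderOf_dvd_natCard Y htY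
    have h7 : 7 ∣ Nat.card Y := hso ▸ Subgroup.orderOf_dvd_natCard Y hsY
    have h2 : 2 ∣ Nat.card Y := orderOf_eq_prime (p := 2) (by rw [sq]; exact hw2) hw1 ▸ Subgroup.orderOf_dvd_natCard Y hwY
    have h42 : 42 ∣ Nat.card Y := by
      have := Nat.Coprime.mul_dvd_of_dvd_of_dvd (by norm_num : Nat.Coprime (2 * 3) 7)
        (Nat.Coprime.mul_dvd_of_dvd_of_dvd (by norm_num) h2 h3) h7
      exact this
    have hf := CfsgLib.SmallSimple.card_dvd_factorial Y hne
    have hm := Subgroup.card_mul_index Y
    obtain ⟨m, hm'⟩ := h42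
    rw [hm', h, mul_assoc] at hm
    rw [h] at hf
    have hle : Y.index ≤ 4 := by
      have : 0 < m := Nat.pos_of_ne_zero fun e => by rw [e, zero_mul, mul_zero] at hm; norm_num at hm
      have := Nat.le_mul_of_pos_left Y.index this
      omega
    have := (hf.trans (Nat.factorial_dvd_factorial hle))
    norm_num [Nat.factorial] at this
  have hrange : f.range = K168 := by
    rw [MonoidHom.range_eq_map, ← hgen, MonoidHom.map_closure, Set.image_insert_eq, Set.image_pair, fs, ft, hk, K168]
    refine le_antisymm ((Subgroup.closure_le _).2 ?_) ((Subgroup.closure_le _).2 ?_)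
    · rintro _ (rfl | rfl | rfl)
      · exact Subgroup.subset_closure (by simp)
      · exact Subgroup.subset_closure (by simp)
      · exact mul_mem (pow_mem (Subgroup.subset_closure (by simp)) k) (Subgroup.subset_closure (by simp))
    · rintro _ (rfl | rfl | rfl)
      · exact Subgroup.subset_closure (by simp)
      · exact Subgroup.subset_closure (by simp)
      · have hb : pb ∈ Subgroup.closure ({pa, pb, pb ^ k * pw} : Set (Perm (Option (ZMod 7)))) :=
          Subgroup.subset_closure (by simp)
        have hp : pb ^ k * pw ∈ Subgroup.closure ({pa, pb, pb ^ k * pw} : Set (Perm (Option (ZMod 7)))) :=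
          Subgroup.subset_closure (by simp)
        simpa using mul_mem (inv_mem (pow_mem hb k)) hp
  exact ⟨(MonoidHom.ofInjective hfinj).trans (MulEquiv.subgroupCongr hrange)⟩

end CfsgLib.SmallIso
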